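import Cfsg.Agent.Lib.Helper52.Sing3.Defs

/-! Sing3 piece A: an element of the normaliser of a cubic field subalgebra lies in the field or has
eigenspaces of dimension at most one. -/

set_option autoImplicit false

namespace Cfsg.Agent.Lib.Helper52.Sing3

open Matrix Cfsg.Geo
open scoped MatrixGroups

variable {F : Type*} [Field F]

namespace A

theorem eq_zero_of_mulVec {K : Subalgebra F (M3 F)} (hK : IsFieldSubalgebra 3 K) {k : M3 F}
    (hk : k ∈ K) {u : Fin 3 → F} (hu : u ≠ 0) (h : k *ᵥ u = 0) : k = 0 := by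
  by_contra hne
  obtain ⟨y, hy, hxy⟩ := hK.inv k hk hne
  have h1 : y * k = 1 := by rw [hK.comm y hy k hk]; exact hxy
  apply hu
  calc u = (1 : M3 F) *ᵥ u := (one_mulVec u).symm
    _ = (y * k) *ᵥ u := by rw [h1]
    _ = y *ᵥ (k *ᵥ u) := (mulVec_mulVec _ _ _).symm
    _ = 0 := by rw [h, mulVec_zero]

/-- the orbit map `k ↦ k u` -/
def orb (K : Subalgebra F (M3 F)) (u : Fin 3 → F) : K →ₗ[F] (Fin 3 → F) where
  toFun k := (k : M3 F) *ᵥ u
  map_add' := by intro a b; simp [add_mulVec]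
  map_smul' := by intro c a; simp [smul_mulVec]

theorem orb_injective {K : Subalgebra F (M3 F)} (hK : IsFieldSubalgebra 3 K) {u : Fin 3 → F}
    (hu : u ≠ 0) : Function.Injective (orb K u) := by
  rw [← LinearMap.ker_eq_bot, LinearMap.ker_eq_bot']
  intro k hk
  exact Subtype.ext (eq_zero_of_mulVec hK k.2 hu hk)

theorem orb_surjective {K : Subalgebra F (M3 F)} (hK : IsFieldSubalgebra 3 K) {u : Fin 3 → F}
    (hu : u ≠ 0) : Function.Surjective (orb K u) := by
  have hfin : Module.finrank F K = Module.finrank F (Fin 3 → F) := by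
    rw [hK.finrank_eq]; simp
  exact (LinearMap.injective_iff_surjective_of_finrank_eq_finrank hfin).1 (orb_injective hK hu)

theorem exists_mulVec_eq {K : Subalgebra F (M3 F)} (hK : IsFieldSubalgebra 3 K) {u : Fin 3 → F}
    (hu : u ≠ 0) (v : Fin 3 → F) : ∃ k ∈ K, k *ᵥ u = v := by
  obtain ⟨k, hk⟩ := orb_surjective hK hu v
  exact ⟨k.1, k.2, hk⟩

/-- a non-scalar element of `K` and an element outside the commutant give four independent
elements -/
theorem four {K : Subalgebra F (M3 F)} (hK : IsFieldSubalgebra 3 K) (g : M3 F) {k m : M3 F}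
    (hk : k ∈ K) (hm : m ∈ K) (hgk : g * k = k * g) (hks : ∀ c : F, k ≠ c • (1 : M3 F))
    (hgm : g * m ≠ m * g) : False := by
  -- elements `a + b k` vanish only trivially
  have lin : ∀ a b : F, a • (1 : M3 F) + b • k = 0 → a = 0 ∧ b = 0 := by
    intro a b h
    by_cases hb : b = 0
    · subst hb
      rw [zero_smul, add_zero] at h
      refine ⟨?_, rfl⟩
      by_contra ha
      have := congrFun (congrFun h 0) 0
      simp at this
      exact ha this
    · exfalso
      apply hks (-(b⁻¹ * a))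
      have h2 : b • k = -(a • (1 : M3 F)) := eq_neg_of_add_eq_zero_right h
      calc k = b⁻¹ • (b • k) := by rw [smul_smul, inv_mul_cancel₀ hb, one_smul]
        _ = (-(b⁻¹ * a)) • (1 : M3 F) := by rw [h2, smul_neg, smul_smul, neg_smul]
  have memK : ∀ a b : F, a • (1 : M3 F) + b • k ∈ K := fun a b =>
    K.add_mem (K.smul_mem K.one_mem a) (K.smul_mem hk b)
  have comm : ∀ a b : F, g * (a • (1 : M3 F) + b • k) = (a • (1 : M3 F) + b • k) * g := by
    intro a b
    rw [mul_add, add_mul, mul_smul_comm, mul_smul_comm, smul_mul_assoc, smul_mul_assoc, hgk,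
      mul_one, one_mul]
  let L : (Fin 4 → F) →ₗ[F] K :=
    { toFun := fun x => ⟨(x 0 • (1 : M3 F) + x 1 • k) + (x 2 • (1 : M3 F) + x 3 • k) * m,
        K.add_mem (memK _ _) (K.mul_mem (memK _ _) hm)⟩
      map_add' := by
        intro x y
        apply Subtype.ext
        simp only [Pi.add_apply, add_smul, Subalgebra.coe_add, add_mul]
        abel
      map_smul' := by
        intro c x
        apply Subtype.ext
        simp only [Pi.smul_apply, smul_eq_mul, mul_smul, RingHom.id_apply, Subalgebra.coe_smul,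
          smul_add, smul_mul_assoc, add_mul] }
  have hL : Function.Injective L := by
    rw [← LinearMap.ker_eq_bot, LinearMap.ker_eq_bot']
    intro x hx
    have hx' : (x 0 • (1 : M3 F) + x 1 • k) + (x 2 • (1 : M3 F) + x 3 • k) * m = 0 :=
      congrArg Subtype.val hx
    have h2 : x 2 • (1 : M3 F) + x 3 • k = 0 := by
      by_contra hne
      obtain ⟨y, hy, hxy⟩ := hK.inv _ (memK (x 2) (x 3)) hne
      have hyx : y * (x 2 • (1 : M3 F) + x 3 • k) = 1 := by
        rw [hK.comm y hy _ (memK _ _)]; exact hxy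
      have hgy : g * y = y * g := by
        calc g * y = (y * (x 2 • (1 : M3 F) + x 3 • k)) * g * y := by rw [hyx, one_mul]
          _ = y * (g * (x 2 • (1 : M3 F) + x 3 • k)) * y := by rw [comm]; simp only [mul_assoc]
          _ = y * g * ((x 2 • (1 : M3 F) + x 3 • k) * y) := by simp only [mul_assoc]
          _ = y * g := by rw [hxy, mul_one]
      have hm' : m = -(y * (x 0 • (1 : M3 F) + x 1 • k)) := by
        have h3 : (x 2 • (1 : M3 F) + x 3 • k) * m = -(x 0 • (1 : M3 F) + x 1 • k) :=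
          eq_neg_of_add_eq_zero_right hx'
        calc m = (y * (x 2 • (1 : M3 F) + x 3 • k)) * m := by rw [hyx, one_mul]
          _ = y * ((x 2 • (1 : M3 F) + x 3 • k) * m) := by rw [mul_assoc]
          _ = -(y * (x 0 • (1 : M3 F) + x 1 • k)) := by rw [h3, mul_neg]
      apply hgm
      rw [hm', mul_neg, neg_mul, ← mul_assoc, hgy, mul_assoc, comm, mul_assoc]
    rw [h2, zero_mul, add_zero] at hx'
    obtain ⟨h0, h1⟩ := lin _ _ hx'
    obtain ⟨h2', h3⟩ := lin _ _ h2
    ext i
    fin_cases i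
    · exact h0
    · exact h1
    · exact h2'
    · exact h3
  have := LinearMap.finrank_le_finrank_of_injective hL
  rw [hK.finrank_eq] at this
  simp at this

end A

theorem mem_or_eig1 (K : Subalgebra F (M3 F)) (hK : IsFieldSubalgebra 3 K) (g : GL (Fin 3) F)
    (hg : g ∈ subalgebraNormalizer K) : (g : M3 F) ∈ K ∨ Eig1 (g : M3 F) := by
  by_cases hgK : (g : M3 F) ∈ K
  · exact Or.inl hgK
  refine Or.inr ?_
  intro a u v hu hgu hgv
  have hginv : ((g⁻¹ : GL (Fin 3) F) : M3 F) * (g : M3 F) = 1 := by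
    rw [← Units.val_mul, inv_mul_cancel, Units.val_one]
  have ha : a ≠ 0 := by
    rintro rfl
    rw [zero_smul] at hgu
    apply hu
    calc u = (1 : M3 F) *ᵥ u := (one_mulVec u).symm
      _ = (((g⁻¹ : GL (Fin 3) F) : M3 F) * (g : M3 F)) *ᵥ u := by rw [hginv]
      _ = ((g⁻¹ : GL (Fin 3) F) : M3 F) *ᵥ ((g : M3 F) *ᵥ u) := (mulVec_mulVec _ _ _).symm
      _ = 0 := by rw [hgu, mulVec_zero]
  obtain ⟨k, hk, hku⟩ := A.exists_mulVec_eq hK hu v
  have hk' : (g : M3 F) * k * ((g⁻¹ : GL (Fin 3) F) : M3 F) ∈ K := (hg k).1 hk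
  have hcomm : (g : M3 F) * k = k * (g : M3 F) := by
    have h1 : ((g : M3 F) * k * ((g⁻¹ : GL (Fin 3) F) : M3 F) - k) *ᵥ u = 0 := by
      have h2 : a • (((g : M3 F) * k * ((g⁻¹ : GL (Fin 3) F) : M3 F)) *ᵥ u) = a • (k *ᵥ u) := by
        calc a • (((g : M3 F) * k * ((g⁻¹ : GL (Fin 3) F) : M3 F)) *ᵥ u)
            = ((g : M3 F) * k * ((g⁻¹ : GL (Fin 3) F) : M3 F)) *ᵥ ((g : M3 F) *ᵥ u) := by
              rw [hgu, mulVec_smul]
          _ = ((g : M3 F) * k * (((g⁻¹ : GL (Fin 3) F) : M3 F) * (g : M3 F))) *ᵥ u := by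
              rw [mulVec_mulVec, mul_assoc]
          _ = (g : M3 F) *ᵥ (k *ᵥ u) := by rw [hginv, mul_one, mulVec_mulVec]
          _ = a • (k *ᵥ u) := by rw [hku, hgv]
      have h3 := smul_right_injective (Fin 3 → F) ha h2
      rw [sub_mulVec, h3, sub_self]
    have h4 := A.eq_zero_of_mulVec hK (K.sub_mem hk' hk) hu h1
    have h5 : (g : M3 F) * k * ((g⁻¹ : GL (Fin 3) F) : M3 F) = k := sub_eq_zero.1 h4
    calc (g : M3 F) * k = (g : M3 F) * k * (((g⁻¹ : GL (Fin 3) F) : M3 F) * (g : M3 F)) := by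
          rw [hginv, mul_one]
      _ = ((g : M3 F) * k * ((g⁻¹ : GL (Fin 3) F) : M3 F)) * (g : M3 F) := by
          simp only [mul_assoc]
      _ = k * (g : M3 F) := by rw [h5]
  by_cases hks : ∃ c : F, k = c • (1 : M3 F)
  · obtain ⟨c, rfl⟩ := hks
    refine ⟨c, ?_⟩
    rw [← hku, smul_mulVec, one_mulVec]
  exfalso
  push Not at hks
  by_cases hall : ∀ m ∈ K, (g : M3 F) * m = m * (g : M3 F)
  · apply hgK
    obtain ⟨k0, hk0, hk0u⟩ := A.exists_mulVec_eq hK hu ((g : M3 F) *ᵥ u)
    have : (g : M3 F) = k0 := by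
      apply Matrix.toLin'.injective
      apply LinearMap.ext
      intro w
      rw [toLin'_apply, toLin'_apply]
      obtain ⟨m, hm, rfl⟩ := A.exists_mulVec_eq hK hu w
      rw [mulVec_mulVec, hall m hm, ← mulVec_mulVec, ← hk0u, mulVec_mulVec, mulVec_mulVec,
        hK.comm m hm k0 hk0]
    rw [this]; exact hk0
  · push Not at hall
    obtain ⟨m, hm, hgm⟩ := hall
    exact A.four hK (g : M3 F) hk hm hcomm hks hgm

end Cfsg.Agent.Lib.Helper52.Sing3
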