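import Cfsg.Agent.Lib.Helper52.Sing3.A

/-! Sing3 piece B: the Frobenius element of the normaliser of a cubic field subalgebra. -/

set_option autoImplicit false
set_option linter.style.haveILetI false

namespace Cfsg.Agent.Lib.Helper52.Sing3

open Matrix Cfsg.Geo
open scoped MatrixGroups

variable {F : Type*} [Field F]

namespace B

theorem isField_sub {K : Subalgebra F (M3 F)} (hK : IsFieldSubalgebra 3 K) : IsField K where
  exists_pair_ne := ⟨0, 1, fun h => zero_ne_one (congrArg Subtype.val h)⟩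
  mul_comm := fun a b => Subtype.ext (hK.comm _ a.2 _ b.2)
  mul_inv_cancel := fun {a} ha => by
    obtain ⟨y, hy, hxy⟩ := hK.inv a a.2 (fun h => ha (Subtype.ext h))
    exact ⟨⟨y, hy⟩, Subtype.ext hxy⟩

variable [Fintype F]

theorem pow_card_cube {K : Subalgebra F (M3 F)} (hK : IsFieldSubalgebra 3 K) (k : K) :
    k ^ (Fintype.card F ^ 3) = k := by
  classical
  letI : Field K := (isField_sub hK).toField
  haveI : Fintype K := Fintype.ofFinite _
  have h1 : Fintype.card K = Fintype.card F ^ 3 := by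
    rw [Module.card_eq_pow_finrank (K := F) (V := K), hK.finrank_eq]
  have h2 := FiniteField.pow_card k
  rw [h1] at h2
  exact h2

theorem exists_pow_ne {K : Subalgebra F (M3 F)} (hK : IsFieldSubalgebra 3 K) :
    ∃ k : K, k ^ Fintype.card F ≠ k := by
  classical
  by_contra hcon
  push Not at hcon
  letI : Field K := (isField_sub hK).toField
  haveI : Fintype K := Fintype.ofFinite _
  have h1 : Fintype.card K = Fintype.card F ^ 3 := by
    rw [Module.card_eq_pow_finrank (K := F) (V := K), hK.finrank_eq]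
  have hq : 1 < Fintype.card F := Fintype.one_lt_card
  have hne := FiniteField.X_pow_card_sub_X_ne_zero K hq
  have hdeg := FiniteField.X_pow_card_sub_X_natDegree_eq K hq
  have hle := Polynomial.card_le_degree_of_subset_roots
    (p := (Polynomial.X ^ Fintype.card F - Polynomial.X : Polynomial K))
    (Z := (Finset.univ : Finset K)) (by
      intro x _
      rw [Polynomial.mem_roots hne, Polynomial.IsRoot, Polynomial.eval_sub, Polynomial.eval_pow,
        Polynomial.eval_X, sub_eq_zero]
      exact hcon x)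
  rw [Finset.card_univ, h1] at hle
  have hle' : Fintype.card F ^ 3 ≤ Fintype.card F := hle.trans hdeg.le
  have : Fintype.card F ^ 1 < Fintype.card F ^ 3 := Nat.pow_lt_pow_right hq (by norm_num)
  rw [pow_one] at this
  omega

/-- the Frobenius map of `K` as an `F`-linear map -/
noncomputable def frob (K : Subalgebra F (M3 F)) (hK : IsFieldSubalgebra 3 K) : K →ₗ[F] K where
  toFun k := k ^ Fintype.card F
  map_add' := by
    intro a b
    obtain ⟨p, hp⟩ := CharP.exists F
    obtain ⟨n, hpp, hq⟩ := FiniteField.card F p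
    haveI : Fact p.Prime := ⟨hpp⟩
    apply Subtype.ext
    have hc : Commute (a : M3 F) (b : M3 F) := hK.comm _ a.2 _ b.2
    have := add_pow_char_pow_of_commute p n hc
    rw [hq]
    simpa using this
  map_smul' := by
    intro c a
    rw [smul_pow, FiniteField.pow_card, RingHom.id_apply]

theorem frob_apply {K : Subalgebra F (M3 F)} (hK : IsFieldSubalgebra 3 K) (k : K) :
    frob K hK k = k ^ Fintype.card F := rfl

theorem frob_cube {K : Subalgebra F (M3 F)} (hK : IsFieldSubalgebra 3 K) (k : K) :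
    frob K hK (frob K hK (frob K hK k)) = k := by
  rw [frob_apply, frob_apply, frob_apply, ← pow_mul, ← pow_mul]
  have : Fintype.card F * (Fintype.card F * Fintype.card F) = Fintype.card F ^ 3 := by ring
  rw [this]
  exact pow_card_cube hK k

end B

theorem exists_frob [Fintype F] (K : Subalgebra F (M3 F)) (hK : IsFieldSubalgebra 3 K) :
    ∃ s : GL (Fin 3) F, s ∈ subalgebraNormalizer K ∧ s ^ 3 = 1 ∧ (s : M3 F) ∉ K ∧
      ∃ u : Fin 3 → F, u ≠ 0 ∧ (s : M3 F) *ᵥ u = u := by
  classical
  set q := Fintype.card F with hq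
  let u : Fin 3 → F := Pi.single 0 1
  have hu : u ≠ 0 := by
    intro h
    have := congrFun h 0
    simp [u] at this
  let o : K ≃ₗ[F] (Fin 3 → F) :=
    LinearEquiv.ofBijective (A.orb K u) ⟨A.orb_injective hK hu, A.orb_surjective hK hu⟩
  have ho : ∀ k : K, o k = (k : M3 F) *ᵥ u := fun k => rfl
  let s₀ : (Fin 3 → F) →ₗ[F] (Fin 3 → F) :=
    o.toLinearMap ∘ₗ B.frob K hK ∘ₗ o.symm.toLinearMap
  have hs₀ : ∀ k : K, s₀ ((k : M3 F) *ᵥ u) = ((k ^ q : K) : M3 F) *ᵥ u := by
    intro k
    show o (B.frob K hK (o.symm ((k : M3 F) *ᵥ u))) = _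
    rw [← ho k, LinearEquiv.symm_apply_apply, B.frob_apply, ho]
  let S : M3 F := LinearMap.toMatrix' s₀
  have hS : ∀ w, S *ᵥ w = s₀ w := by
    intro w
    rw [← Matrix.toLin'_apply, Matrix.toLin'_toMatrix']
  have hSk : ∀ k : K, S *ᵥ ((k : M3 F) *ᵥ u) = ((k : M3 F) ^ q) *ᵥ u := by
    intro k
    rw [hS, hs₀]
    rfl
  have ext_u : ∀ X Y : M3 F, (∀ k : K, X *ᵥ ((k : M3 F) *ᵥ u) = Y *ᵥ ((k : M3 F) *ᵥ u)) →
      X = Y := by
    intro X Y h
    apply Matrix.toLin'.injective
    apply LinearMap.ext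
    intro w
    rw [toLin'_apply, toLin'_apply]
    obtain ⟨k, hk, rfl⟩ := A.exists_mulVec_eq hK hu w
    exact h ⟨k, hk⟩
  have hS3 : S * S * S = 1 := by
    apply ext_u
    intro k
    rw [one_mulVec, ← mulVec_mulVec, ← mulVec_mulVec, hSk]
    have h1 := hSk (k ^ q)
    have h2 := hSk ((k ^ q) ^ q)
    simp only [SubmonoidClass.coe_pow] at h1 h2
    rw [h1, h2]
    have h3 := congrArg (Subtype.val) (B.frob_cube hK k)
    simp only [B.frob_apply, SubmonoidClass.coe_pow] at h3
    rw [h3]
  have hSm : ∀ m ∈ K, S * m = m ^ q * S := by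
    intro m hm
    apply ext_u
    intro k
    have h1 := hSk (⟨m, hm⟩ * k)
    simp only [MulMemClass.coe_mul] at h1
    calc (S * m) *ᵥ ((k : M3 F) *ᵥ u) = S *ᵥ ((m * (k : M3 F)) *ᵥ u) := by
          rw [mulVec_mulVec, mulVec_mulVec, mul_assoc]
      _ = (m * (k : M3 F)) ^ q *ᵥ u := h1
      _ = (m ^ q * (k : M3 F) ^ q) *ᵥ u := by
          rw [(show Commute m (k : M3 F) from hK.comm _ hm _ k.2).mul_pow]
      _ = m ^ q *ᵥ (S *ᵥ ((k : M3 F) *ᵥ u)) := by rw [hSk, mulVec_mulVec]
      _ = (m ^ q * S) *ᵥ ((k : M3 F) *ᵥ u) := by rw [mulVec_mulVec]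
  let s : GL (Fin 3) F := ⟨S, S * S, by rw [← mul_assoc]; exact hS3, hS3⟩
  have hsv : (s : M3 F) = S := rfl
  have hsi : ((s⁻¹ : GL (Fin 3) F) : M3 F) = S * S := rfl
  have hconj : ∀ m ∈ K, S * m * (S * S) = m ^ q := by
    intro m hm
    rw [hSm m hm, mul_assoc, ← mul_assoc S S S, hS3, mul_one]
  refine ⟨s, ?_, ?_, ?_, u, hu, ?_⟩
  · intro k
    rw [hsv, hsi]
    constructor
    · intro hk
      rw [hconj k hk]
      exact K.pow_mem hk q
    · intro hk
      -- conjugate twice more
      have h1 := hconj _ hk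
      have h2 := hconj _ (K.pow_mem hk q)
      have h3 : S * (S * (S * k * (S * S)) * (S * S)) * (S * S) = k := by
        calc S * (S * (S * k * (S * S)) * (S * S)) * (S * S)
            = (S * S * S) * k * ((S * S * S) * (S * S * S)) := by simp only [mul_assoc]
          _ = k := by rw [hS3, one_mul, mul_one, mul_one]
      rw [← h3, h1, h2]
      exact K.pow_mem (K.pow_mem hk q) q
  · apply Units.ext
    rw [Units.val_pow_eq_pow_val, hsv, Units.val_one, pow_succ, pow_two]
    exact hS3
  · rw [hsv]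
    intro hSK
    obtain ⟨k, hk⟩ := B.exists_pow_ne hK
    apply hk
    apply Subtype.ext
    have h1 := hSm k k.2
    rw [hK.comm S hSK _ k.2] at h1
    have h2 : (k : M3 F) = (k : M3 F) ^ q := by
      calc (k : M3 F) = (k : M3 F) * S * (S * S) := by
            rw [mul_assoc, ← mul_assoc S S S, hS3, mul_one]
        _ = (k : M3 F) ^ q * S * (S * S) := by rw [h1]
        _ = (k : M3 F) ^ q := by rw [mul_assoc, ← mul_assoc S S S, hS3, mul_one]
    rw [SubmonoidClass.coe_pow]
    exact h2.symm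
  · rw [hsv]
    have h1 := hSk 1
    simpa using h1

end Cfsg.Agent.Lib.Helper52.Sing3
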