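import Cfsg.Agent.Lib.Helper52.Sing3.Defs

/-! Sing3 farm, piece C: Cayley-Hamilton for `3 × 3` matrices, by hand. -/

set_option autoImplicit false
set_option maxHeartbeats 1000000

namespace Cfsg.Agent.Lib.Helper52.Sing3

open Matrix

variable {F : Type*} [Field F]

theorem ch3 (x : M3 F) : ∃ t s : F, x ^ 3 = t • x ^ 2 - s • x + x.det • (1 : M3 F) ∧
    (1 - x).det = 1 - t + s - x.det := by
  refine ⟨x 0 0 + x 1 1 + x 2 2,
    x 0 0 * x 1 1 - x 0 1 * x 1 0 + (x 0 0 * x 2 2 - x 0 2 * x 2 0) +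
      (x 1 1 * x 2 2 - x 1 2 * x 2 1), ?_, ?_⟩
  · ext i j
    fin_cases i <;> fin_cases j <;>
      simp [pow_succ, Matrix.mul_apply, Fin.sum_univ_three, Matrix.det_fin_three] <;> ring
  · simp [Matrix.det_fin_three]
    ring

end Cfsg.Agent.Lib.Helper52.Sing3
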