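import Cfsg.Agent.Lib.Helper52.Sing3.C

/-! Sing3 farm, piece D. -/

set_option autoImplicit false

namespace Cfsg.Agent.Lib.Helper52.Sing3

open Matrix

variable {F : Type*} [Field F]

theorem e0_ne_zero (h3 : (3 : F) ≠ 0) (x : M3 F) (hd : x.det = 1) (hx : x ^ 3 = 1)
    (hns : ∀ z : F, x ≠ z • (1 : M3 F)) : 1 + x + x ^ 2 ≠ 0 := by
  intro h0
  obtain ⟨t, s, h1, h2⟩ := ch3 x
  have hx2 : x ^ 2 = -x - 1 := by
    have : x ^ 2 = (1 + x + x ^ 2) - x - 1 := by abel
    rw [this, h0]; abel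
  rw [hx, hx2, hd] at h1
  have h4 : (t + s) • x = (-t) • (1 : M3 F) := by
    have e : (t + s) • x = (-t) • (1 : M3 F) - (t • (-x - 1) - s • x + (1 : F) • (1 : M3 F)) + 1 := by
      simp only [smul_sub, smul_neg, add_smul, neg_smul, one_smul]
      abel
    rw [e, ← h1]; abel
  have hts : t + s = 0 := by
    by_contra hne
    apply hns ((t + s)⁻¹ * (-t))
    rw [mul_smul, ← h4, smul_smul, inv_mul_cancel₀ hne, one_smul]
  have ht : t = 0 := by
    rw [hts, zero_smul] at h4
    have := congrFun (congrFun h4 0) 0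
    simpa using this.symm
  have hs : s = 0 := by rw [ht, zero_add] at hts; exact hts
  rw [ht, hs, hd] at h2
  have hdet : (1 - x).det = 0 := by rw [h2]; ring
  obtain ⟨v, hv, hv0⟩ := Matrix.exists_mulVec_eq_zero_iff.2 hdet
  have hxv : x *ᵥ v = v := by
    rw [Matrix.sub_mulVec, Matrix.one_mulVec, sub_eq_zero] at hv0
    exact hv0.symm
  have h5 : (1 + x + x ^ 2) *ᵥ v = (3 : F) • v := by
    rw [Matrix.add_mulVec, Matrix.add_mulVec, Matrix.one_mulVec, pow_two, ← Matrix.mulVec_mulVec,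
      hxv, hxv]
    have : (3 : F) = 1 + 1 + 1 := by norm_num
    rw [this, add_smul, add_smul, one_smul]
  rw [h0, Matrix.zero_mulVec] at h5
  rcases smul_eq_zero.1 h5.symm with h | h
  · exact h3 h
  · exact hv h

end Cfsg.Agent.Lib.Helper52.Sing3
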