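import Mathlib
import Cfsg.Prelude.Def_GeometricClasses

/-! Definitions for S5971 (elements of order 3 of `PSL_3(q)` and the normaliser of a Singer cycle). -/

set_option autoImplicit false

namespace Cfsg.Agent.Lib.Helper52.Sing3

open Matrix

/-- `3 × 3` matrices -/
abbrev M3 (F : Type*) := Matrix (Fin 3) (Fin 3) F

/-- the permutation matrix `e₀ ↦ e₁ ↦ e₂ ↦ e₀` -/
def Cm (F : Type*) [Zero F] [One F] : M3 F := !![0, 0, 1; 1, 0, 0; 0, 1, 0]

variable {F : Type*} [Field F]

/-- `y` is conjugate in `GL_3` to the permutation matrix `Cm` -/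
def Cyc (y : M3 F) : Prop := ∃ P : GL (Fin 3) F, y * (P : M3 F) = (P : M3 F) * Cm F

/-- all eigenspaces of `g` (eigenvalues in `F`) have dimension at most one -/
def Eig1 (g : M3 F) : Prop :=
  ∀ (a : F) (u v : Fin 3 → F), u ≠ 0 → g *ᵥ u = a • u → g *ᵥ v = a • v → ∃ c : F, v = c • u

end Cfsg.Agent.Lib.Helper52.Sing3
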