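import Cfsg.Agent.Lib.Helper52.Sing3.C

/-! Sing3 farm, piece E. -/

set_option autoImplicit false

namespace Cfsg.Agent.Lib.Helper52.Sing3

open Matrix

variable {F : Type*} [Field F]

namespace E

theorem smul_one_inj {a b : F} (h : a • (1 : M3 F) = b • (1 : M3 F)) : a = b := by
  have := congrFun (congrFun h 0) 0
  simpa using this

/-- a non-scalar matrix is linearly independent of `1` -/
theorem coeffs_zero (x : M3 F) (hns : ∀ z : F, x ≠ z • (1 : M3 F)) {a b : F}
    (h : a • x = b • (1 : M3 F)) : a = 0 ∧ b = 0 := by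
  have ha : a = 0 := by
    by_contra hne
    apply hns (a⁻¹ * b)
    rw [mul_smul, ← h, smul_smul, inv_mul_cancel₀ hne, one_smul]
  refine ⟨ha, ?_⟩
  rw [ha, zero_smul] at h
  have : b • (1 : M3 F) = (0 : F) • (1 : M3 F) := by rw [zero_smul, ← h]
  exact smul_one_inj this

end E

theorem exists_cube_root (x : M3 F) (hd : x.det = 1) (z : F) (hx : x ^ 3 = z • (1 : M3 F))
    (hz : z ≠ 1) : ∃ η : F, η ^ 3 = z := by
  by_cases hsc : ∃ c : F, x = c • (1 : M3 F)
  · obtain ⟨c, rfl⟩ := hsc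
    refine ⟨c, ?_⟩
    rw [smul_pow, one_pow] at hx
    exact E.smul_one_inj hx
  push Not at hsc
  obtain ⟨t, s, h1, -⟩ := ch3 x
  rw [hx, hd] at h1
  -- `t x² = s x + (z - 1)`
  have h2 : t • x ^ 2 = s • x + (z - 1) • (1 : M3 F) := by
    have e : t • x ^ 2 = (t • x ^ 2 - s • x + (1 : F) • (1 : M3 F)) + s • x - (1 : F) • (1 : M3 F) := by
      abel
    rw [e, ← h1, sub_smul]; abel
  by_cases ht : t = 0
  · exfalso
    rw [ht, zero_smul] at h2
    have h3 : s • x = (1 - z) • (1 : M3 F) := by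
      have e : s • x = (s • x + (z - 1) • (1 : M3 F)) - (z - 1) • (1 : M3 F) := by abel
      rw [e, ← h2, zero_sub, ← neg_smul, neg_sub]
    have := (E.coeffs_zero x hsc h3).2
    exact hz (sub_eq_zero.1 this).symm
  set a := t⁻¹ * s with ha
  set b := t⁻¹ * (z - 1) with hb
  have h3 : x ^ 2 = a • x + b • (1 : M3 F) := by
    have : x ^ 2 = t⁻¹ • (t • x ^ 2) := by rw [smul_smul, inv_mul_cancel₀ ht, one_smul]
    rw [this, h2, smul_add, smul_smul, smul_smul]
  have h4 : x ^ 3 = (a * a + b) • x + (a * b) • (1 : M3 F) := by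
    rw [pow_succ, h3, add_mul, smul_mul_assoc, smul_mul_assoc, one_mul, ← pow_two, h3, smul_add,
      smul_smul, smul_smul, add_smul]
    abel
  rw [hx] at h4
  have h5 : (a * a + b) • x = (z - a * b) • (1 : M3 F) := by
    rw [sub_smul, h4]; abel
  obtain ⟨h6, h7⟩ := E.coeffs_zero x hsc h5
  refine ⟨-a, ?_⟩
  have hb' : b = -(a * a) := by linear_combination h6
  have hz' : z = a * b := by linear_combination h7
  rw [hz', hb']; ring

end Cfsg.Agent.Lib.Helper52.Sing3
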