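import Cfsg.Agent.Lib.Helper52.Sing3.Defs

/-! Sing3 farm (helper52, S5971): piece F (cyclic vector gives conjugacy to `Cm`); by helper73. -/

set_option autoImplicit false

namespace Cfsg.Agent.Lib.Helper52.Sing3

open Matrix

variable {F : Type*} [Field F]

theorem cyc_of_li (y : M3 F) (hy : y ^ 3 = 1) (v : Fin 3 → F)
    (hli : LinearIndependent F ![v, y *ᵥ v, y *ᵥ (y *ᵥ v)]) : Cyc y := by
  obtain ⟨A, hA⟩ : ∃ A : M3 F, A = Matrix.of ![v, y *ᵥ v, y *ᵥ (y *ᵥ v)] := ⟨_, rfl⟩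
  have hu : IsUnit A := by
    rw [← Matrix.linearIndependent_rows_iff_isUnit, hA]
    exact hli
  have hu' : IsUnit Aᵀ := (Matrix.isUnit_transpose A).mpr hu
  refine ⟨hu'.unit, ?_⟩
  rw [IsUnit.unit_spec]
  have h3 : y *ᵥ (y *ᵥ (y *ᵥ v)) = v := by
    rw [Matrix.mulVec_mulVec, Matrix.mulVec_mulVec, ← pow_two, ← pow_succ, hy, Matrix.one_mulVec]
  have h0 : ∀ i j, (y * Aᵀ) i j = (y *ᵥ (A j)) i := by
    intro i j
    simp [Matrix.mul_apply, Matrix.mulVec, dotProduct]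
  have hA0 : A 0 = v := by rw [hA]; rfl
  have hA1 : A 1 = y *ᵥ v := by rw [hA]; rfl
  have hA2 : A 2 = y *ᵥ (y *ᵥ v) := by rw [hA]; rfl
  ext i j
  rw [h0]
  fin_cases j
  · have h : (Aᵀ * Cm F) i 0 = A 1 i := by simp [Cm, Matrix.mul_apply, Fin.sum_univ_three]
    change (y *ᵥ A 0) i = (Aᵀ * Cm F) i 0
    rw [h, hA0, hA1]
  · have h : (Aᵀ * Cm F) i 1 = A 2 i := by simp [Cm, Matrix.mul_apply, Fin.sum_univ_three]
    change (y *ᵥ A 1) i = (Aᵀ * Cm F) i 1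
    rw [h, hA1, hA2]
  · have h : (Aᵀ * Cm F) i 2 = A 0 i := by simp [Cm, Matrix.mul_apply, Fin.sum_univ_three]
    change (y *ᵥ A 2) i = (Aᵀ * Cm F) i 2
    rw [h, hA2, hA0, h3]

namespace F

/-- a convenient criterion for the independence of three vectors -/
theorem li3 {V : Type*} [AddCommGroup V] [Module F V] (v1 v2 v3 : V)
    (h : ∀ a b c : F, a • v1 + b • v2 + c • v3 = 0 → a = 0 ∧ b = 0 ∧ c = 0) :
    LinearIndependent F ![v1, v2, v3] := by
  rw [Fintype.linearIndependent_iff]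
  intro g hg
  rw [Fin.sum_univ_three] at hg
  obtain ⟨h0, h1, h2⟩ := h (g 0) (g 1) (g 2) (by simpa using hg)
  intro i
  fin_cases i
  · exact h0
  · exact h1
  · exact h2

end F

end Cfsg.Agent.Lib.Helper52.Sing3
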