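import Cfsg.Agent.Lib.Helper52.Sing3.F

/-! Sing3 farm (helper52, S5971): piece G (cyclic vector, no primitive cube root of unity);
by helper73. -/

set_option autoImplicit false

namespace Cfsg.Agent.Lib.Helper52.Sing3

open Matrix

variable {F : Type*} [Field F]

namespace G

theorem eq_of_mulVec (M N : M3 F) (h : ∀ w, M *ᵥ w = N *ᵥ w) : M = N := by
  apply Matrix.toLin'.injective
  exact LinearMap.ext (fun w => by rw [Matrix.toLin'_apply, Matrix.toLin'_apply, h])

theorem core {V : Type*} [AddCommGroup V] [Module F V] (h3 : (3 : F) ≠ 0)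
    (hω : ∀ μ : F, μ ^ 2 + μ + 1 ≠ 0) (f : V →ₗ[F] V) (hf : ∀ u, f (f (f u)) = u)
    (w0 : V) (h0 : w0 + f w0 + f (f w0) ≠ 0) (w1 : V) (h1 : f w1 - w1 ≠ 0) :
    ∃ v : V, ∀ a b c : F, a • v + b • f v + c • f (f v) = 0 → a = 0 ∧ b = 0 ∧ c = 0 := by
  obtain ⟨v0, hv0⟩ : ∃ v0, v0 = w0 + f w0 + f (f w0) := ⟨_, rfl⟩
  obtain ⟨w, hw⟩ : ∃ w, w = f w1 - w1 := ⟨_, rfl⟩
  have hv0ne : v0 ≠ 0 := hv0 ▸ h0
  have hwne : w ≠ 0 := hw ▸ h1
  have hfv0 : f v0 = v0 := by
    rw [hv0, map_add, map_add, hf]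
    abel
  have hew : f (f w) = - w - f w := by
    rw [hw, map_sub, map_sub, hf]
    abel
  refine ⟨v0 + w, ?_⟩
  intro a b c H
  rw [map_add, map_add, hfv0, hfv0, hew] at H
  have H1 : (a + b + c) • v0 + (a - c) • w + (b - c) • f w = 0 := by
    rw [← H]; module
  have H2 := congrArg f H1
  rw [map_add, map_add, map_smul, map_smul, map_smul, hfv0, hew, map_zero] at H2
  have H3 := congrArg f H2
  rw [map_add, map_add, map_smul, map_smul, map_smul, hfv0, map_sub, map_neg, hew, map_zero] at H3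
  have H4 : (3 * (a + b + c)) • v0 = 0 := by
    have : (3 * (a + b + c)) • v0 = ((a + b + c) • v0 + (a - c) • w + (b - c) • f w)
        + ((a + b + c) • v0 + (a - c) • f w + (b - c) • (-w - f w))
        + ((a + b + c) • v0 + (a - c) • (-w - f w) + (b - c) • (-f w - (-w - f w))) := by
      module
    rw [this, H1, H2, H3]
    simp
  have habc : a + b + c = 0 := by
    rcases smul_eq_zero.mp H4 with h | h
    · rcases mul_eq_zero.mp h with h | h
      · exact absurd h h3
      · exact h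
    · exact absurd h hv0ne
  rw [habc, zero_smul, zero_add] at H1
  have hbc : b = c := by
    by_contra hbc
    have hbc' : b - c ≠ 0 := sub_ne_zero.mpr hbc
    obtain ⟨μ, hμ⟩ : ∃ μ : F, μ = -(a - c) / (b - c) := ⟨_, rfl⟩
    have hfw : f w = μ • w := by
      have h5 : (b - c) • f w = (-(a - c)) • w := by
        rw [neg_smul]
        exact eq_neg_of_add_eq_zero_right H1
      have h6 : f w = (b - c)⁻¹ • ((b - c) • f w) := by
        rw [smul_smul, inv_mul_cancel₀ hbc', one_smul]
      rw [h6, h5, smul_smul, hμ]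
      congr 1
      field_simp
    have h7 : (μ ^ 2 + μ + 1) • w = 0 := by
      have h8 := hew
      rw [hfw, map_smul, hfw] at h8
      have : (μ ^ 2 + μ + 1) • w = μ • μ • w - (-w - μ • w) := by module
      rw [this, h8, sub_self]
    rcases smul_eq_zero.mp h7 with h | h
    · exact hω μ h
    · exact hwne h
  have hac : a = c := by
    rw [hbc, sub_self, zero_smul, add_zero] at H1
    rcases smul_eq_zero.mp H1 with h | h
    · exact sub_eq_zero.mp h
    · exact absurd h hwne
  have hc : c = 0 := by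
    rw [hac, hbc] at habc
    have : 3 * c = 0 := by linear_combination habc
    rcases mul_eq_zero.mp this with h | h
    · exact absurd h h3
    · exact h
  exact ⟨hac.trans hc, hbc.trans hc, hc⟩

end G

theorem cyc_of_no_omega (h3 : (3 : F) ≠ 0) (hω : ∀ μ : F, μ ^ 2 + μ + 1 ≠ 0) (y : M3 F)
    (hy : y ^ 3 = 1) (h0 : 1 + y + y ^ 2 ≠ 0) (h1 : y ≠ 1) : Cyc y := by
  have hf : ∀ u, y.mulVecLin (y.mulVecLin (y.mulVecLin u)) = u := by
    intro u
    simp only [Matrix.mulVecLin_apply]
    rw [Matrix.mulVec_mulVec, Matrix.mulVec_mulVec, ← pow_two, ← pow_succ, hy, Matrix.one_mulVec]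
  obtain ⟨w0, hw0⟩ : ∃ w0, w0 + y.mulVecLin w0 + y.mulVecLin (y.mulVecLin w0) ≠ 0 := by
    by_contra hcon
    push Not at hcon
    apply h0
    apply G.eq_of_mulVec
    intro w
    have := hcon w
    simp only [Matrix.mulVecLin_apply] at this
    rw [Matrix.add_mulVec, Matrix.add_mulVec, Matrix.one_mulVec, pow_two, ← Matrix.mulVec_mulVec,
      this, Matrix.zero_mulVec]
  obtain ⟨w1, hw1⟩ : ∃ w1, y.mulVecLin w1 - w1 ≠ 0 := by
    by_contra hcon
    push Not at hcon
    apply h1
    apply G.eq_of_mulVec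
    intro w
    have := hcon w
    simp only [Matrix.mulVecLin_apply] at this
    rw [Matrix.one_mulVec]
    exact sub_eq_zero.mp this
  obtain ⟨v, hv⟩ := G.core h3 hω y.mulVecLin hf w0 hw0 w1 hw1
  exact cyc_of_li y hy v (Sing3.F.li3 _ _ _ hv)

end Cfsg.Agent.Lib.Helper52.Sing3
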