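import Cfsg.Agent.Lib.Helper52.Sing3.F

/-! Sing3 farm (helper52, S5971): piece H (cyclic vector, with a primitive cube root of unity);
by helper73. -/

set_option autoImplicit false

namespace Cfsg.Agent.Lib.Helper52.Sing3

open Matrix

variable {F : Type*} [Field F]

namespace H

theorem eq_of_mulVec (M N : M3 F) (h : ∀ w, M *ᵥ w = N *ᵥ w) : M = N := by
  apply Matrix.toLin'.injective
  exact LinearMap.ext (fun w => by rw [Matrix.toLin'_apply, Matrix.toLin'_apply, h])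

theorem core {V : Type*} [AddCommGroup V] [Module F V] (h3 : (3 : F) ≠ 0)
    (ω : F) (hω : ω ^ 2 + ω + 1 = 0) (f : V →ₗ[F] V) (hf : ∀ u, f (f (f u)) = u)
    (w0 : V) (h0 : w0 + f w0 + f (f w0) ≠ 0)
    (w1 : V) (h1 : w1 + ω • f w1 + ω ^ 2 • f (f w1) ≠ 0)
    (w2 : V) (h2 : w2 + ω ^ 2 • f w2 + ω • f (f w2) ≠ 0) :
    ∃ v : V, ∀ a b c : F, a • v + b • f v + c • f (f v) = 0 → a = 0 ∧ b = 0 ∧ c = 0 := by
  obtain ⟨u0, hu0⟩ : ∃ u0, u0 = w0 + f w0 + f (f w0) := ⟨_, rfl⟩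
  obtain ⟨u1, hu1⟩ : ∃ u1, u1 = w1 + ω • f w1 + ω ^ 2 • f (f w1) := ⟨_, rfl⟩
  obtain ⟨u2, hu2⟩ : ∃ u2, u2 = w2 + ω ^ 2 • f w2 + ω • f (f w2) := ⟨_, rfl⟩
  have hu0ne : u0 ≠ 0 := hu0 ▸ h0
  have hu1ne : u1 ≠ 0 := hu1 ▸ h1
  have hu2ne : u2 ≠ 0 := hu2 ▸ h2
  have hω3 : ω ^ 3 = 1 := by linear_combination (ω - 1) * hω
  have hf0 : f u0 = u0 := by
    rw [hu0, map_add, map_add, hf]
    abel
  have hf1 : f u1 = ω ^ 2 • u1 := by
    rw [hu1, map_add, map_add, map_smul, map_smul, hf]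
    match_scalars <;> grind
  have hf2 : f u2 = ω • u2 := by
    rw [hu2, map_add, map_add, map_smul, map_smul, hf]
    match_scalars <;> grind
  refine ⟨u0 + u1 + u2, ?_⟩
  intro a b c H
  rw [map_add, map_add, hf0, hf1, hf2, map_add, map_add, hf0, map_smul, map_smul, hf1, hf2] at H
  obtain ⟨A0, hA0⟩ : ∃ A0, A0 = a + b + c := ⟨_, rfl⟩
  obtain ⟨A1, hA1⟩ : ∃ A1, A1 = a + b * ω ^ 2 + c * ω := ⟨_, rfl⟩
  obtain ⟨A2, hA2⟩ : ∃ A2, A2 = a + b * ω + c * ω ^ 2 := ⟨_, rfl⟩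
  have H1 : A0 • u0 + A1 • u1 + A2 • u2 = 0 := by
    rw [← H, hA0, hA1, hA2]
    match_scalars <;> grind
  have H2 := congrArg f H1
  rw [map_add, map_add, map_smul, map_smul, map_smul, hf0, hf1, hf2, map_zero] at H2
  have H3 := congrArg f H2
  rw [map_add, map_add, map_smul, map_smul, map_smul, map_smul, map_smul, hf0, hf1, hf2,
    map_zero] at H3
  have K0 : (3 * A0) • u0 = 0 := by
    have : (3 * A0) • u0 = (A0 • u0 + A1 • u1 + A2 • u2)
        + (A0 • u0 + A1 • ω ^ 2 • u1 + A2 • ω • u2)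
        + (A0 • u0 + A1 • ω ^ 2 • ω ^ 2 • u1 + A2 • ω • ω • u2) := by
      match_scalars <;> grind
    rw [this, H1, H2, H3]
    simp
  have K1 : (3 * A1) • u1 = 0 := by
    have : (3 * A1) • u1 = (A0 • u0 + A1 • u1 + A2 • u2)
        + ω • (A0 • u0 + A1 • ω ^ 2 • u1 + A2 • ω • u2)
        + ω ^ 2 • (A0 • u0 + A1 • ω ^ 2 • ω ^ 2 • u1 + A2 • ω • ω • u2) := by
      match_scalars <;> grind
    rw [this, H1, H2, H3]
    simp
  have K2 : (3 * A2) • u2 = 0 := by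
    have : (3 * A2) • u2 = (A0 • u0 + A1 • u1 + A2 • u2)
        + ω ^ 2 • (A0 • u0 + A1 • ω ^ 2 • u1 + A2 • ω • u2)
        + ω • (A0 • u0 + A1 • ω ^ 2 • ω ^ 2 • u1 + A2 • ω • ω • u2) := by
      match_scalars <;> grind
    rw [this, H1, H2, H3]
    simp
  have z0 : A0 = 0 := by
    rcases smul_eq_zero.mp K0 with h | h
    · exact (mul_eq_zero.mp h).resolve_left h3
    · exact absurd h hu0ne
  have z1 : A1 = 0 := by
    rcases smul_eq_zero.mp K1 with h | h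
    · exact (mul_eq_zero.mp h).resolve_left h3
    · exact absurd h hu1ne
  have z2 : A2 = 0 := by
    rcases smul_eq_zero.mp K2 with h | h
    · exact (mul_eq_zero.mp h).resolve_left h3
    · exact absurd h hu2ne
  rw [hA0] at z0
  rw [hA1] at z1
  rw [hA2] at z2
  have ha : 3 * a = 0 := by linear_combination z0 + z1 + z2 - (b + c) * hω
  have hb : 3 * b = 0 := by grind
  have hc : 3 * c = 0 := by grind
  exact ⟨(mul_eq_zero.mp ha).resolve_left h3, (mul_eq_zero.mp hb).resolve_left h3,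
    (mul_eq_zero.mp hc).resolve_left h3⟩

end H

theorem cyc_of_omega (h3 : (3 : F) ≠ 0) (ω : F) (hω : ω ^ 2 + ω + 1 = 0) (y : M3 F)
    (hy : y ^ 3 = 1) (h0 : 1 + y + y ^ 2 ≠ 0) (h1 : 1 + ω • y + ω ^ 2 • y ^ 2 ≠ 0)
    (h2 : 1 + ω ^ 2 • y + ω • y ^ 2 ≠ 0) : Cyc y := by
  have hf : ∀ u, y.mulVecLin (y.mulVecLin (y.mulVecLin u)) = u := by
    intro u
    simp only [Matrix.mulVecLin_apply]
    rw [Matrix.mulVec_mulVec, Matrix.mulVec_mulVec, ← pow_two, ← pow_succ, hy, Matrix.one_mulVec]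
  have key : ∀ s t : F, 1 + s • y + t • y ^ 2 ≠ 0 →
      ∃ w, w + s • y.mulVecLin w + t • y.mulVecLin (y.mulVecLin w) ≠ 0 := by
    intro s t hst
    by_contra hcon
    push Not at hcon
    apply hst
    apply H.eq_of_mulVec
    intro w
    have := hcon w
    simp only [Matrix.mulVecLin_apply] at this
    rw [Matrix.add_mulVec, Matrix.add_mulVec, Matrix.one_mulVec, Matrix.smul_mulVec,
      Matrix.smul_mulVec, pow_two, ← Matrix.mulVec_mulVec, this, Matrix.zero_mulVec]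
  obtain ⟨w0, hw0⟩ := key 1 1 (by simpa using h0)
  obtain ⟨w1, hw1⟩ := key _ _ h1
  obtain ⟨w2, hw2⟩ := key _ _ h2
  obtain ⟨v, hv⟩ := H.core h3 ω hω y.mulVecLin hf w0 (by simpa using hw0) w1 hw1 w2 hw2
  exact cyc_of_li y hy v (Sing3.F.li3 _ _ _ hv)

end Cfsg.Agent.Lib.Helper52.Sing3
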