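import Cfsg.Agent.Lib.Helper52.Sing3.Defs

/-! Sing3 farm, piece I: a matrix with one-dimensional eigenspaces is not killed by a product of
two distinct linear factors. -/

set_option autoImplicit false

namespace Cfsg.Agent.Lib.Helper52.Sing3

open Matrix
open scoped MatrixGroups

variable {F : Type*} [Field F]

namespace I

/-- an eigenspace of dimension at most one is contained in a line -/
theorem exists_line (y : M3 F) (hy : Eig1 y) (a : F) :
    ∃ u : Fin 3 → F, ∀ v : Fin 3 → F, y *ᵥ v = a • v → v ∈ Submodule.span F {u} := by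
  by_cases h : ∃ u : Fin 3 → F, u ≠ 0 ∧ y *ᵥ u = a • u
  · obtain ⟨u, hu, hyu⟩ := h
    refine ⟨u, fun v hv => ?_⟩
    obtain ⟨c, rfl⟩ := hy a u v hu hyu hv
    exact Submodule.smul_mem _ _ (Submodule.mem_span_singleton_self u)
  · push Not at h
    refine ⟨0, fun v hv => ?_⟩
    by_cases hv0 : v = 0
    · rw [hv0]; exact Submodule.zero_mem _
    · exact absurd hv (h v hv0)

end I

theorem eig1_two (y : M3 F) (hy : Eig1 y) (a b : F) (hab : a ≠ b)
    (h : (y - a • (1 : M3 F)) * (y - b • (1 : M3 F)) = 0) : False := by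
  obtain ⟨u1, h1⟩ := I.exists_line y hy a
  obtain ⟨u2, h2⟩ := I.exists_line y hy b
  have hcomm : (y - b • (1 : M3 F)) * (y - a • (1 : M3 F)) = 0 := by
    rw [← h]
    simp only [sub_mul, mul_sub, smul_mul_assoc, mul_smul_comm, one_mul, mul_one, smul_sub]
    rw [smul_comm a b]
    abel
  have hsub : ∀ (c : F) (w : Fin 3 → F), (y - c • (1 : M3 F)) *ᵥ w = y *ᵥ w - c • w := by
    intro c w
    rw [Matrix.sub_mulVec, Matrix.smul_mulVec, Matrix.one_mulVec]
  have htop : ∀ w : Fin 3 → F, w ∈ Submodule.span F ({u1, u2} : Set (Fin 3 → F)) := by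
    intro w
    -- `p = (y - b) w` is in the `a`-eigenspace, `r = (y - a) w` in the `b`-eigenspace
    have hp : y *ᵥ ((y - b • (1 : M3 F)) *ᵥ w) = a • ((y - b • (1 : M3 F)) *ᵥ w) := by
      have := congrArg (fun M : M3 F => M *ᵥ w) h
      simp only [Matrix.zero_mulVec] at this
      rw [← Matrix.mulVec_mulVec, hsub a] at this
      exact sub_eq_zero.mp this
    have hr : y *ᵥ ((y - a • (1 : M3 F)) *ᵥ w) = b • ((y - a • (1 : M3 F)) *ᵥ w) := by
      have := congrArg (fun M : M3 F => M *ᵥ w) hcomm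
      simp only [Matrix.zero_mulVec] at this
      rw [← Matrix.mulVec_mulVec, hsub b] at this
      exact sub_eq_zero.mp this
    have m1 := h1 _ hp
    have m2 := h2 _ hr
    have le1 : Submodule.span F {u1} ≤ Submodule.span F ({u1, u2} : Set (Fin 3 → F)) :=
      Submodule.span_mono (by simp)
    have le2 : Submodule.span F {u2} ≤ Submodule.span F ({u1, u2} : Set (Fin 3 → F)) :=
      Submodule.span_mono (by simp)
    have hw : w = (a - b)⁻¹ • ((y - b • (1 : M3 F)) *ᵥ w - (y - a • (1 : M3 F)) *ᵥ w) := by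
      rw [hsub, hsub]
      have : y *ᵥ w - b • w - (y *ᵥ w - a • w) = (a - b) • w := by
        rw [sub_smul]; abel
      rw [this, smul_smul, inv_mul_cancel₀ (sub_ne_zero.mpr hab), one_smul]
    rw [hw]
    exact Submodule.smul_mem _ _ (Submodule.sub_mem _ (le1 m1) (le2 m2))
  have heq : Submodule.span F ({u1, u2} : Set (Fin 3 → F)) = ⊤ := by
    rw [eq_top_iff]
    intro w _
    exact htop w
  have hfin : Module.finrank F (Submodule.span F ({u1, u2} : Set (Fin 3 → F))) ≤ 2 := by
    classical
    have := finrank_span_finset_le_card (R := F) ({u1, u2} : Finset (Fin 3 → F))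
    have h2 : ({u1, u2} : Finset (Fin 3 → F)).card ≤ 2 := Finset.card_le_two
    have e : ((({u1, u2} : Finset (Fin 3 → F)) : Set (Fin 3 → F))) = {u1, u2} := by simp
    rw [e] at this
    exact le_trans this h2
  rw [heq, finrank_top, Module.finrank_fin_fun] at hfin
  omega

end Cfsg.Agent.Lib.Helper52.Sing3
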