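import Cfsg.Agent.Lib.Helper52.Sing3.Defs

/-! Sing3 farm, piece J: two cyclic elements are conjugate under `SL_3`. -/

set_option autoImplicit false

namespace Cfsg.Agent.Lib.Helper52.Sing3

open Matrix
open scoped MatrixGroups

variable {F : Type*} [Field F]

namespace J

/-- the circulant `1 + β J` -/
def Gm (β : F) : M3 F := !![1 + β, β, β; β, 1 + β, β; β, β, 1 + β]

theorem det_Gm (β : F) : (Gm β).det = 1 + 3 * β := by
  unfold Gm
  rw [Matrix.det_fin_three]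
  simp
  ring

theorem Gm_comm (β : F) : Gm β * Cm F = Cm F * Gm β := by
  unfold Gm Cm
  ext i j
  fin_cases i <;> fin_cases j <;> simp [Matrix.mul_apply, Fin.sum_univ_three]

end J

theorem conj_of_cyc (h3 : (3 : F) ≠ 0) (x : SpecialLinearGroup (Fin 3) F) (s : GL (Fin 3) F)
    (hx : Cyc (x : M3 F)) (hs : Cyc (s : M3 F)) :
    ∃ P : SpecialLinearGroup (Fin 3) F, SpecialLinearGroup.toGL (P⁻¹ * x * P) = s := by
  obtain ⟨P1, h1⟩ := hx
  obtain ⟨P2, h2⟩ := hs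
  have d1 : (P1 : M3 F).det ≠ 0 := by
    have := (Matrix.isUnit_iff_isUnit_det (P1 : M3 F)).mp P1.isUnit
    exact this.ne_zero
  have d2 : (P2 : M3 F).det ≠ 0 := by
    have := (Matrix.isUnit_iff_isUnit_det (P2 : M3 F)).mp P2.isUnit
    exact this.ne_zero
  set d : F := (P2 : M3 F).det / (P1 : M3 F).det with hd
  set β : F := (d - 1) / 3 with hβ
  have hG : (J.Gm β).det = d := by
    rw [J.det_Gm, hβ]
    field_simp
    ring
  have hP2inv : (P2 : M3 F) * ((P2⁻¹ : GL (Fin 3) F) : M3 F) = 1 := by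
    rw [← Units.val_mul, mul_inv_cancel]; rfl
  have hP2inv' : ((P2⁻¹ : GL (Fin 3) F) : M3 F) * (P2 : M3 F) = 1 := by
    rw [← Units.val_mul, inv_mul_cancel]; rfl
  have dinv : ((P2⁻¹ : GL (Fin 3) F) : M3 F).det = ((P2 : M3 F).det)⁻¹ := by
    have := congrArg Matrix.det hP2inv
    rw [Matrix.det_mul, Matrix.det_one] at this
    exact eq_inv_of_mul_eq_one_right this
  let Pm : M3 F := (P1 : M3 F) * J.Gm β * ((P2⁻¹ : GL (Fin 3) F) : M3 F)
  have hdet : Pm.det = 1 := by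
    show ((P1 : M3 F) * J.Gm β * ((P2⁻¹ : GL (Fin 3) F) : M3 F)).det = 1
    rw [Matrix.det_mul, Matrix.det_mul, hG, dinv, hd]
    field_simp
  let P : SpecialLinearGroup (Fin 3) F := ⟨Pm, hdet⟩
  refine ⟨P, ?_⟩
  -- `x P = P s`
  have key : (x : M3 F) * Pm = Pm * (s : M3 F) := by
    have e2 : Cm F * ((P2⁻¹ : GL (Fin 3) F) : M3 F) = ((P2⁻¹ : GL (Fin 3) F) : M3 F) * (s : M3 F) := by
      calc Cm F * ((P2⁻¹ : GL (Fin 3) F) : M3 F)
          = (((P2⁻¹ : GL (Fin 3) F) : M3 F) * (P2 : M3 F)) * Cm F * ((P2⁻¹ : GL (Fin 3) F) : M3 F) := by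
            rw [hP2inv', one_mul]
        _ = ((P2⁻¹ : GL (Fin 3) F) : M3 F) * ((P2 : M3 F) * Cm F) * ((P2⁻¹ : GL (Fin 3) F) : M3 F) := by
            simp only [mul_assoc]
        _ = ((P2⁻¹ : GL (Fin 3) F) : M3 F) * ((s : M3 F) * (P2 : M3 F)) * ((P2⁻¹ : GL (Fin 3) F) : M3 F) := by
            rw [h2]
        _ = ((P2⁻¹ : GL (Fin 3) F) : M3 F) * (s : M3 F) * ((P2 : M3 F) * ((P2⁻¹ : GL (Fin 3) F) : M3 F)) := by
            simp only [mul_assoc]
        _ = _ := by rw [hP2inv, mul_one]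
    calc (x : M3 F) * Pm
        = ((x : M3 F) * (P1 : M3 F)) * J.Gm β * ((P2⁻¹ : GL (Fin 3) F) : M3 F) := by
          show (x : M3 F) * ((P1 : M3 F) * J.Gm β * ((P2⁻¹ : GL (Fin 3) F) : M3 F)) = _
          simp only [mul_assoc]
      _ = (P1 : M3 F) * (Cm F * J.Gm β) * ((P2⁻¹ : GL (Fin 3) F) : M3 F) := by
          rw [h1]; simp only [mul_assoc]
      _ = (P1 : M3 F) * J.Gm β * (Cm F * ((P2⁻¹ : GL (Fin 3) F) : M3 F)) := by
          rw [← J.Gm_comm]; simp only [mul_assoc]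
      _ = (P1 : M3 F) * J.Gm β * (((P2⁻¹ : GL (Fin 3) F) : M3 F) * (s : M3 F)) := by rw [e2]
      _ = Pm * (s : M3 F) := by
          show _ = (P1 : M3 F) * J.Gm β * ((P2⁻¹ : GL (Fin 3) F) : M3 F) * (s : M3 F)
          simp only [mul_assoc]
  have key' : SpecialLinearGroup.toGL x * SpecialLinearGroup.toGL P
      = SpecialLinearGroup.toGL P * s := by
    apply Units.ext
    exact key
  rw [map_mul, map_mul, map_inv, mul_assoc, key', ← mul_assoc, inv_mul_cancel, one_mul]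

end Cfsg.Agent.Lib.Helper52.Sing3
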