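import Cfsg.Agent.Lib.Helper52.Sing3.Defs

/-! Sing3 farm (helper52, S5971): piece L (roots of unity in a finite field); by helper73. -/

set_option autoImplicit false

namespace Cfsg.Agent.Lib.Helper52.Sing3

open Matrix

variable {F : Type*} [Field F]

theorem three_eq_zero_iff [Fintype F] : (3 : F) = 0 ↔ Fintype.card F % 3 = 0 := by
  obtain ⟨n, hp, hq⟩ := FiniteField.card F (ringChar F)
  have h3 : (3 : F) = 0 ↔ ringChar F ∣ 3 := by
    have := CharP.cast_eq_zero_iff F (ringChar F) 3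
    simpa using this
  rw [h3, hq]
  constructor
  · intro h
    have h1 : ringChar F = 3 := (Nat.prime_dvd_prime_iff_eq hp Nat.prime_three).mp h
    rw [h1]
    exact Nat.mod_eq_zero_of_dvd (dvd_pow_self 3 n.ne_zero)
  · intro h
    have h1 : 3 ∣ ringChar F := Nat.prime_three.dvd_of_dvd_pow (Nat.dvd_of_mod_eq_zero h)
    have h2 : 3 = ringChar F := (Nat.prime_dvd_prime_iff_eq Nat.prime_three hp).mp h1
    rw [← h2]

theorem no_omega [Fintype F] (h : Fintype.card F % 3 = 2) : ∀ μ : F, μ ^ 2 + μ + 1 ≠ 0 := by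
  intro μ hμ
  have h3 : μ ^ 3 = 1 := by linear_combination (μ - 1) * hμ
  have hμ0 : μ ≠ 0 := by
    rintro rfl
    simp at hμ
  have hq : μ ^ (Fintype.card F - 1) = 1 := FiniteField.pow_card_sub_one_eq_one μ hμ0
  have hg : Nat.gcd 3 (Fintype.card F - 1) = 1 := by
    have h1 : ¬ 3 ∣ Fintype.card F - 1 := by omega
    exact (Nat.Prime.coprime_iff_not_dvd Nat.prime_three).mpr h1
  have h1 : μ = 1 := by
    have := pow_gcd_eq_one.mpr ⟨h3, hq⟩
    rwa [hg, pow_one] at this
  rw [h1] at hμ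
  have h30 : (3 : F) = 0 := by linear_combination hμ
  have := three_eq_zero_iff.mp h30
  omega

theorem exists_omega [Fintype F] (h : Fintype.card F % 3 = 1) : ∃ ω : F, ω ^ 2 + ω + 1 = 0 := by
  classical
  have : Fact (Nat.Prime 3) := ⟨Nat.prime_three⟩
  have hd : 3 ∣ Fintype.card Fˣ := by
    rw [Fintype.card_units]
    omega
  obtain ⟨ω, hω⟩ := exists_prime_orderOf_dvd_card 3 hd
  have h3 : (ω : F) ^ 3 = 1 := by
    have := pow_orderOf_eq_one ω
    rw [hω] at this
    rw [← Units.val_pow_eq_pow_val, this, Units.val_one]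
  have h1 : (ω : F) ≠ 1 := by
    intro h1
    have : ω = 1 := Units.ext h1
    rw [this, orderOf_one] at hω
    omega
  refine ⟨ω, ?_⟩
  have h2 : ((ω : F) - 1) * ((ω : F) ^ 2 + ω + 1) = 0 := by linear_combination h3
  rcases mul_eq_zero.mp h2 with h2 | h2
  · exact absurd (sub_eq_zero.mp h2) h1
  · exact h2

theorem exists_nine [Fintype F] (h : Fintype.card F % 9 = 1) : ∃ η : F, η ^ 9 = 1 ∧ η ^ 3 ≠ 1 := by
  classical
  obtain ⟨g, hg⟩ := IsCyclic.exists_ofOrder_eq_natCard (α := Fˣ)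
  rw [Nat.card_eq_fintype_card, Fintype.card_units] at hg
  have hq : 2 ≤ Fintype.card F := Fintype.one_lt_card
  obtain ⟨k, hk⟩ : 9 ∣ Fintype.card F - 1 := by omega
  have hk0 : k ≠ 0 := by
    rintro rfl
    omega
  have ho : orderOf (g ^ k) = 9 := by
    rw [orderOf_pow_of_dvd hk0 (by rw [hg, hk]; exact Dvd.intro_left 9 rfl), hg, hk]
    exact Nat.mul_div_cancel _ (Nat.pos_of_ne_zero hk0)
  refine ⟨((g ^ k : Fˣ) : F), ?_, ?_⟩
  · have := pow_orderOf_eq_one (g ^ k)
    rw [ho] at this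
    rw [← Units.val_pow_eq_pow_val, this, Units.val_one]
  · intro h3
    have h4 : (g ^ k) ^ 3 = 1 := Units.ext (by rw [Units.val_pow_eq_pow_val, h3, Units.val_one])
    have := orderOf_dvd_of_pow_eq_one h4
    rw [ho] at this
    omega

theorem mod_nine_of_order [Fintype F] (η : F) (h9 : η ^ 9 = 1) (h3 : η ^ 3 ≠ 1) :
    Fintype.card F % 9 = 1 := by
  have : Fact (Nat.Prime 3) := ⟨Nat.prime_three⟩
  have ho : orderOf η = 3 ^ (1 + 1) :=
    orderOf_eq_prime_pow (by simpa using h3) (by norm_num; exact h9)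
  have hη0 : η ≠ 0 := by
    rintro rfl
    simp at h9
  have hq : η ^ (Fintype.card F - 1) = 1 := FiniteField.pow_card_sub_one_eq_one η hη0
  have hd := orderOf_dvd_of_pow_eq_one hq
  rw [ho] at hd
  have hq2 : 2 ≤ Fintype.card F := Fintype.one_lt_card
  norm_num at hd
  omega

end Cfsg.Agent.Lib.Helper52.Sing3
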