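import Cfsg.Agent.Lib.Helper52.Sing3.Defs
import Cfsg.Agent.Lib.Helper5.LinearCard

/-! Sing3 farm, piece Mc: `9 ∤ |SL_3(q)|` for `q = 2, 5 mod 9`. -/

set_option autoImplicit false

namespace Cfsg.Agent.Lib.Helper52.Sing3

open Matrix
open scoped MatrixGroups

variable {F : Type*} [Field F]

namespace Mc

theorem arith (q N : ℕ) (hq : 2 ≤ q) (h : q % 9 = 2 ∨ q % 9 = 5)
    (hN : (q ^ 3 - 1) * (q ^ 3 - q) * (q ^ 3 - q ^ 2) = N * (q - 1)) : ¬ 9 ∣ N := by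
  intro h9
  obtain ⟨k, rfl⟩ : ∃ k, q = k + 1 := ⟨q - 1, by omega⟩
  have e1 : (k + 1) ^ 3 - 1 = k * (k ^ 2 + 3 * k + 3) := by
    have : (k + 1) ^ 3 = k * (k ^ 2 + 3 * k + 3) + 1 := by ring
    omega
  have e2 : (k + 1) ^ 3 - (k + 1) = (k + 1) * k * (k + 2) := by
    have : (k + 1) ^ 3 = (k + 1) * k * (k + 2) + (k + 1) := by ring
    omega
  have e3 : (k + 1) ^ 3 - (k + 1) ^ 2 = (k + 1) ^ 2 * k := by
    have : (k + 1) ^ 3 = (k + 1) ^ 2 * k + (k + 1) ^ 2 := by ring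
    omega
  rw [e1, e2, e3, Nat.add_sub_cancel] at hN
  have hk : 0 < k := by omega
  have hN' : N = (k ^ 2 + 3 * k + 3) * ((k + 1) * k * (k + 2)) * ((k + 1) ^ 2 * k) := by
    apply Nat.eq_of_mul_eq_mul_right hk
    rw [← hN]
    ring
  rw [hN'] at h9
  have h9' := (Nat.dvd_iff_mod_eq_zero).mp h9
  have hk9 : k % 9 = 1 ∨ k % 9 = 4 := by omega
  rcases hk9 with hk9 | hk9
  · have : ((k ^ 2 + 3 * k + 3) * ((k + 1) * k * (k + 2)) * ((k + 1) ^ 2 * k)) % 9 =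
        ((1 ^ 2 + 3 * 1 + 3) * ((1 + 1) * 1 * (1 + 2)) * ((1 + 1) ^ 2 * 1)) % 9 := by
      have hm : k ≡ 1 [MOD 9] := hk9
      exact Nat.ModEq.mul (Nat.ModEq.mul (((hm.pow 2).add (hm.mul_left 3)).add_right 3)
        (((hm.add_right 1).mul hm).mul (hm.add_right 2))) (((hm.add_right 1).pow 2).mul hm)
    rw [this] at h9'
    norm_num at h9'
  · have : ((k ^ 2 + 3 * k + 3) * ((k + 1) * k * (k + 2)) * ((k + 1) ^ 2 * k)) % 9 =
        ((4 ^ 2 + 3 * 4 + 3) * ((4 + 1) * 4 * (4 + 2)) * ((4 + 1) ^ 2 * 4)) % 9 := by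
      have hm : k ≡ 4 [MOD 9] := hk9
      exact Nat.ModEq.mul (Nat.ModEq.mul (((hm.pow 2).add (hm.mul_left 3)).add_right 3)
        (((hm.add_right 1).mul hm).mul (hm.add_right 2))) (((hm.add_right 1).pow 2).mul hm)
    rw [this] at h9'
    norm_num at h9'

end Mc

theorem not_nine_dvd [Fintype F] (h : Fintype.card F % 9 = 2 ∨ Fintype.card F % 9 = 5) :
    ¬ 9 ∣ Nat.card (SpecialLinearGroup (Fin 3) F) := by
  have h1 := Cfsg.Agent.Lib.Helper5.card_GL_eq_card_SL_mul_card_units (n := Fin 3) (F := F)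
  rw [Matrix.card_GL_field] at h1
  have h2 : Nat.card Fˣ = Fintype.card F - 1 := by
    classical
    rw [Nat.card_eq_fintype_card, Fintype.card_units]
  rw [h2] at h1
  have hq : 2 ≤ Fintype.card F := Fintype.one_lt_card
  simp only [Fin.prod_univ_three, Fin.val_zero, Fin.val_one, Fin.val_two, pow_zero, pow_one] at h1
  exact Mc.arith _ _ hq h h1

end Cfsg.Agent.Lib.Helper52.Sing3
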