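import Cfsg.Agent.Lib.Helper52.Sing3.NE

/-! Sing3 farm, piece N1. -/

set_option autoImplicit false
set_option linter.unusedSimpArgs false

namespace Cfsg.Agent.Lib.Helper52.Sing3

open Matrix Cfsg.Geo
open scoped MatrixGroups

variable {F : Type*} [Field F]

namespace N1

/-- generic wrapper of `not_conj_of_eig2` for elements of `SL_3` -/
theorem wrap (K : Subalgebra F (M3 F)) (hK : IsFieldSubalgebra 3 K)
    (x : SpecialLinearGroup (Fin 3) F)
    (hns : ∀ z : F, (x : M3 F) ≠ z • (1 : M3 F)) (a : F) (u v : Fin 3 → F) (hu : u ≠ 0)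
    (hv : ∀ c : F, v ≠ c • u) (hxu : (x : M3 F) *ᵥ u = a • u) (hxv : (x : M3 F) *ᵥ v = a • v)
    (P : SpecialLinearGroup (Fin 3) F) :
    SpecialLinearGroup.toGL (P⁻¹ * x * P) ∉ subalgebraNormalizer K := by
  apply not_conj_of_eig2 K hK (x : M3 F) hns a u v hu hv hxu hxv (SpecialLinearGroup.toGL P)
  rw [← map_inv, Matrix.SpecialLinearGroup.coe_GL_coe_matrix, Matrix.SpecialLinearGroup.coe_GL_coe_matrix,
    Matrix.SpecialLinearGroup.coe_GL_coe_matrix, Matrix.SpecialLinearGroup.coe_mul, Matrix.SpecialLinearGroup.coe_mul]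

end N1

theorem ce_char_three (h3 : (3 : F) = 0) (K : Subalgebra F (M3 F)) (hK : IsFieldSubalgebra 3 K) :
    ∃ x : SpecialLinearGroup (Fin 3) F,
      ((x ^ 3 : SpecialLinearGroup (Fin 3) F) : M3 F) = (1 : F) • (1 : M3 F) ∧
      (∀ z : F, (x : M3 F) ≠ z • (1 : M3 F)) ∧
      ∀ P : SpecialLinearGroup (Fin 3) F,
        SpecialLinearGroup.toGL (P⁻¹ * x * P) ∉ subalgebraNormalizer K := by
  have h01 : (0 : Fin 3) ≠ 1 := by decide
  obtain ⟨x, hxc⟩ : ∃ x : SpecialLinearGroup (Fin 3) F, (x : M3 F) = Matrix.transvection 0 1 1 :=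
    ⟨⟨Matrix.transvection 0 1 1, Matrix.det_transvection_of_ne 0 1 h01 1⟩, rfl⟩
  have hns : ∀ z : F, (x : M3 F) ≠ z • (1 : M3 F) := by
    intro z hz
    have := congrFun (congrFun hz 0) 1
    rw [hxc] at this
    simp [Matrix.transvection, Matrix.single_apply] at this
  refine ⟨x, ?_, hns, ?_⟩
  · rw [Matrix.SpecialLinearGroup.coe_pow, hxc, pow_succ, pow_two,
      Matrix.transvection_mul_transvection_same _ _ h01,
      Matrix.transvection_mul_transvection_same _ _ h01, one_smul]
    have : (1 : F) + 1 + 1 = 0 := by rw [← h3]; norm_num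
    rw [this, Matrix.transvection_zero]
  · intro P
    apply N1.wrap K hK x hns 1 (Pi.single 0 1) (Pi.single 2 1)
    · intro h
      have := congrFun h 0
      simp at this
    · intro c h
      have := congrFun h 2
      simp at this
    · rw [hxc, one_smul]
      ext i
      fin_cases i <;> simp [Matrix.transvection, Matrix.add_mulVec, Matrix.single_mulVec]
    · rw [hxc, one_smul]
      ext i
      fin_cases i <;> simp [Matrix.transvection, Matrix.add_mulVec, Matrix.single_mulVec]

end Cfsg.Agent.Lib.Helper52.Sing3
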