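import Cfsg.Agent.Lib.Helper52.Sing3.N1

/-! Sing3 farm, piece N2. -/

set_option autoImplicit false
set_option linter.unusedSimpArgs false

namespace Cfsg.Agent.Lib.Helper52.Sing3

open Matrix Cfsg.Geo
open scoped MatrixGroups

variable {F : Type*} [Field F]

theorem ce_nine (η : F) (h9 : η ^ 9 = 1) (h3 : η ^ 3 ≠ 1) (K : Subalgebra F (M3 F))
    (hK : IsFieldSubalgebra 3 K) :
    ∃ x : SpecialLinearGroup (Fin 3) F,
      ((x ^ 3 : SpecialLinearGroup (Fin 3) F) : M3 F) = (η ^ 3) • (1 : M3 F) ∧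
      (∀ z : F, (x : M3 F) ≠ z • (1 : M3 F)) ∧
      ∀ P : SpecialLinearGroup (Fin 3) F,
        SpecialLinearGroup.toGL (P⁻¹ * x * P) ∉ subalgebraNormalizer K := by
  have hη : η ≠ 0 := by
    intro h
    rw [h] at h9
    norm_num at h9
  -- third entry `η ^ 7 = η⁻²`
  have hdet : (Matrix.diagonal ![η, η, η ^ 7] : M3 F).det = 1 := by
    rw [Matrix.det_diagonal, Fin.prod_univ_three]
    simp only [Matrix.cons_val_zero, Matrix.cons_val_one, Matrix.cons_val_two, Matrix.head_cons,
      Matrix.tail_cons]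
    have : η * η * η ^ 7 = η ^ 9 := by ring
    simpa [this] using h9
  obtain ⟨x, hxc⟩ : ∃ x : SpecialLinearGroup (Fin 3) F,
      (x : M3 F) = Matrix.diagonal ![η, η, η ^ 7] := ⟨⟨_, hdet⟩, rfl⟩
  have hns : ∀ z : F, (x : M3 F) ≠ z • (1 : M3 F) := by
    intro z hz
    rw [hxc] at hz
    have e0 := congrFun (congrFun hz 0) 0
    have e2 := congrFun (congrFun hz 2) 2
    simp at e0 e2
    apply h3
    have h6 : η ^ 6 = 1 := by
      have : η * η ^ 6 = η * 1 := by
        rw [mul_one]
        calc η * η ^ 6 = η ^ 7 := by ring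
          _ = η := by rw [e2, ← e0]
      exact mul_left_cancel₀ hη this
    have : η ^ 9 = η ^ 6 * η ^ 3 := by ring
    rw [this, h6, one_mul] at h9
    exact h9
  refine ⟨x, ?_, hns, ?_⟩
  · rw [Matrix.SpecialLinearGroup.coe_pow, hxc, Matrix.diagonal_pow]
    ext i j
    have h21 : (η ^ 7) ^ 3 = η ^ 3 := by
      calc (η ^ 7) ^ 3 = (η ^ 9) ^ 2 * η ^ 3 := by ring
        _ = η ^ 3 := by rw [h9]; ring
    fin_cases i <;> fin_cases j <;> simp [Matrix.diagonal_apply, h21]
  · intro P
    apply N1.wrap K hK x hns η (Pi.single 0 1) (Pi.single 1 1)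
    · intro h
      have := congrFun h 0
      simp at this
    · intro c h
      have := congrFun h 1
      simp at this
    · rw [hxc]
      ext i
      fin_cases i <;> simp [Matrix.mulVec_diagonal]
    · rw [hxc]
      ext i
      fin_cases i <;> simp [Matrix.mulVec_diagonal]

end Cfsg.Agent.Lib.Helper52.Sing3
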