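import Cfsg.Agent.Lib.Helper52.Sing3.B
import Cfsg.Agent.Lib.Helper52.Sing3.L
import Cfsg.Agent.Lib.Helper52.Sing3.Mc

/-! Sing3 farm, piece N3: for `q = 2, 5 mod 9` the index of the normaliser of a Singer cycle in
`SL_3(q)` is prime to 3. -/

set_option autoImplicit false

namespace Cfsg.Agent.Lib.Helper52.Sing3

open Matrix Cfsg.Geo
open scoped MatrixGroups

variable {F : Type*} [Field F]

theorem not_three_dvd_index [Fintype F] (h : Fintype.card F % 9 = 2 ∨ Fintype.card F % 9 = 5)
    (K : Subalgebra F (M3 F)) (hK : IsFieldSubalgebra 3 K) :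
    ¬ 3 ∣ ((subalgebraNormalizer K).comap (SpecialLinearGroup.toGL :
      SpecialLinearGroup (Fin 3) F →* GL (Fin 3) F)).index := by
  intro hdvd
  have hq : Fintype.card F % 3 = 2 := by omega
  obtain ⟨s, hsN, hs3, hsK, -⟩ := exists_frob K hK
  have hS3 : (s : M3 F) ^ 3 = 1 := by
    rw [← Units.val_pow_eq_pow_val, hs3]; rfl
  have hdet3 : (s : M3 F).det ^ 3 = 1 := by
    rw [← Matrix.det_pow, hS3, Matrix.det_one]
  have hdet : (s : M3 F).det = 1 := by
    have hfac : ((s : M3 F).det - 1) * ((s : M3 F).det ^ 2 + (s : M3 F).det + 1) = 0 := by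
      linear_combination hdet3
    rcases mul_eq_zero.mp hfac with h1 | h1
    · exact sub_eq_zero.mp h1
    · exact absurd h1 (no_omega hq _)
  let s' : SpecialLinearGroup (Fin 3) F := ⟨(s : M3 F), hdet⟩
  have hto : SpecialLinearGroup.toGL s' = s := Units.ext rfl
  have hmem : s' ∈ (subalgebraNormalizer K).comap (SpecialLinearGroup.toGL :
      SpecialLinearGroup (Fin 3) F →* GL (Fin 3) F) := by
    rw [Subgroup.mem_comap, hto]
    exact hsN
  have hne : s' ≠ 1 := by
    intro h1
    apply hsK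
    have : (s : M3 F) = 1 := congrArg Subtype.val h1
    rw [this]
    exact K.one_mem
  have hpow : s' ^ 3 = 1 := by
    apply SpecialLinearGroup.toGL_injective
    rw [map_pow, hto, hs3, map_one]
  have : Fact (Nat.Prime 3) := ⟨Nat.prime_three⟩
  have ho : orderOf s' = 3 := orderOf_eq_prime hpow hne
  have hd3 : 3 ∣ Nat.card ((subalgebraNormalizer K).comap (SpecialLinearGroup.toGL :
      SpecialLinearGroup (Fin 3) F →* GL (Fin 3) F)) := by
    have := orderOf_dvd_natCard (⟨s', hmem⟩ : (subalgebraNormalizer K).comap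
      (SpecialLinearGroup.toGL : SpecialLinearGroup (Fin 3) F →* GL (Fin 3) F))
    rwa [Subgroup.orderOf_mk, ho] at this
  apply not_nine_dvd h
  rw [← Subgroup.card_mul_index ((subalgebraNormalizer K).comap (SpecialLinearGroup.toGL :
      SpecialLinearGroup (Fin 3) F →* GL (Fin 3) F))]
  exact Nat.mul_dvd_mul hd3 hdvd

end Cfsg.Agent.Lib.Helper52.Sing3
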