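import Cfsg.Agent.Lib.Helper52.Sing3.E
import Cfsg.Agent.Lib.Helper52.Sing3.L

/-! Sing3 farm, piece N4a. -/

set_option autoImplicit false

namespace Cfsg.Agent.Lib.Helper52.Sing3

open Matrix

variable {F : Type*} [Field F]

theorem z_eq_one [Fintype F] (h : Fintype.card F % 9 ≠ 1) (x : M3 F) (hd : x.det = 1) (z : F)
    (hx : x ^ 3 = z • (1 : M3 F)) : z = 1 := by
  by_contra hz
  have hz3 : z ^ 3 = 1 := by
    have h1 := congrArg Matrix.det hx
    rw [Matrix.det_pow, hd, one_pow, Matrix.det_smul, Matrix.det_one, mul_one, Fintype.card_fin] at h1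
    exact h1.symm
  obtain ⟨η, hη⟩ := exists_cube_root x hd z hx hz
  apply h
  apply mod_nine_of_order η
  · have : η ^ 9 = (η ^ 3) ^ 3 := by ring
    rw [this, hη, hz3]
  · rw [hη]; exact hz

end Cfsg.Agent.Lib.Helper52.Sing3
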