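import Cfsg.Agent.Lib.Helper52.Sing3.D
import Cfsg.Agent.Lib.Helper52.Sing3.G
import Cfsg.Agent.Lib.Helper52.Sing3.H
import Cfsg.Agent.Lib.Helper52.Sing3.L

/-! Sing3 farm, piece N4b: a non-scalar element of order 3 of `SL_3(q)`, `3 ∤ q`, is cyclic. -/

set_option autoImplicit false

namespace Cfsg.Agent.Lib.Helper52.Sing3

open Matrix Cfsg.Geo
open scoped MatrixGroups

variable {F : Type*} [Field F]

namespace N4b

theorem twist (h3 : (3 : F) ≠ 0) (x : M3 F) (hd : x.det = 1) (hx : x ^ 3 = 1)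
    (hns : ∀ z : F, x ≠ z • (1 : M3 F)) (c : F) (hc : c ^ 3 = 1) :
    1 + c • x + c ^ 2 • x ^ 2 ≠ 0 := by
  have hc0 : c ≠ 0 := by
    rintro rfl
    norm_num at hc
  have := e0_ne_zero h3 (c • x) (by rw [Matrix.det_smul, Fintype.card_fin, hc, hd, one_mul])
    (by rw [smul_pow, hc, hx, one_smul])
    (by
      intro z hz
      apply hns (c⁻¹ * z)
      rw [mul_smul, ← hz, smul_smul, inv_mul_cancel₀ hc0, one_smul])
  rwa [smul_pow] at this

end N4b

theorem cyc_x [Fintype F] (h : Fintype.card F % 3 ≠ 0) (x : M3 F) (hd : x.det = 1) (hx : x ^ 3 = 1)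
    (hns : ∀ z : F, x ≠ z • (1 : M3 F)) : Cyc x := by
  have h3 : (3 : F) ≠ 0 := fun h0 => h (three_eq_zero_iff.mp h0)
  have h0 : 1 + x + x ^ 2 ≠ 0 := e0_ne_zero h3 x hd hx hns
  have hq : Fintype.card F % 3 = 1 ∨ Fintype.card F % 3 = 2 := by omega
  rcases hq with hq | hq
  · obtain ⟨ω, hω⟩ := exists_omega hq
    have hω3 : ω ^ 3 = 1 := by linear_combination (ω - 1) * hω
    have h1 := N4b.twist h3 x hd hx hns ω hω3
    have h2 := N4b.twist h3 x hd hx hns (ω ^ 2) (by linear_combination (ω ^ 3 + 1) * hω3)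
    have e : (ω ^ 2) ^ 2 = ω := by linear_combination ω * hω3
    rw [e] at h2
    exact cyc_of_omega h3 ω hω x hx h0 h1 h2
  · refine cyc_of_no_omega h3 (no_omega hq) x hx h0 ?_
    intro h1
    exact hns 1 (by rw [h1, one_smul])

end Cfsg.Agent.Lib.Helper52.Sing3
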