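import Cfsg.Agent.Lib.Helper52.Sing3.A
import Cfsg.Agent.Lib.Helper52.Sing3.G
import Cfsg.Agent.Lib.Helper52.Sing3.H
import Cfsg.Agent.Lib.Helper52.Sing3.I
import Cfsg.Agent.Lib.Helper52.Sing3.L

/-! Sing3 farm, piece N4c: the Frobenius element of the normaliser of a Singer cycle is cyclic. -/

set_option autoImplicit false

namespace Cfsg.Agent.Lib.Helper52.Sing3

open Matrix Cfsg.Geo
open scoped MatrixGroups

variable {F : Type*} [Field F]

namespace N4c

theorem factor (S : M3 F) (c : F) (hc : c ^ 2 + c + 1 = 0) :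
    (S - (1 : F) • (1 : M3 F)) * (S - c • (1 : M3 F)) = c • (1 + c • S + c ^ 2 • S ^ 2) := by
  have hc3 : c ^ 3 = 1 := by linear_combination (c - 1) * hc
  have hc2 : c ^ 2 = -c - 1 := by linear_combination hc
  have e1 : c • (1 + c • S + c ^ 2 • S ^ 2) = c • (1 : M3 F) + (c ^ 2) • S + (c ^ 3) • S ^ 2 := by
    module
  rw [e1, hc3, hc2, pow_two]
  simp only [sub_mul, mul_sub, smul_mul_assoc, mul_smul_comm, one_mul, mul_one, one_smul]
  module

theorem ne_zero_of_eig1 (h3 : (3 : F) ≠ 0) (S : M3 F) (hE : Eig1 S) (c : F)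
    (hc : c ^ 2 + c + 1 = 0) : 1 + c • S + c ^ 2 • S ^ 2 ≠ 0 := by
  intro h0
  have h1c : (1 : F) ≠ c := by
    rintro rfl
    apply h3
    linear_combination hc
  refine eig1_two S hE 1 c h1c ?_
  rw [factor S c hc, h0, smul_zero]

end N4c

theorem cyc_s [Fintype F] (h : Fintype.card F % 3 ≠ 0) (K : Subalgebra F (M3 F))
    (hK : IsFieldSubalgebra 3 K) (s : GL (Fin 3) F) (hs : s ∈ subalgebraNormalizer K)
    (h3 : s ^ 3 = 1) (hsK : (s : M3 F) ∉ K) (u : Fin 3 → F) (hu : u ≠ 0)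
    (hsu : (s : M3 F) *ᵥ u = u) : Cyc (s : M3 F) := by
  have h3F : (3 : F) ≠ 0 := fun h0 => h (three_eq_zero_iff.mp h0)
  have hS3 : (s : M3 F) ^ 3 = 1 := by
    rw [← Units.val_pow_eq_pow_val, h3]; rfl
  have hS1 : (s : M3 F) ≠ 1 := by
    intro h1
    apply hsK
    rw [h1]
    exact K.one_mem
  have h0 : 1 + (s : M3 F) + (s : M3 F) ^ 2 ≠ 0 := by
    intro h0
    have := congrArg (fun M : M3 F => M *ᵥ u) h0
    simp only [Matrix.add_mulVec, Matrix.one_mulVec, Matrix.zero_mulVec, pow_two] at this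
    rw [← Matrix.mulVec_mulVec, hsu, hsu] at this
    have h3u : (3 : F) • u = 0 := by
      rw [← this]
      module
    rcases smul_eq_zero.mp h3u with h | h
    · exact h3F h
    · exact hu h
  have hq : Fintype.card F % 3 = 1 ∨ Fintype.card F % 3 = 2 := by omega
  rcases hq with hq | hq
  · obtain ⟨ω, hω⟩ := exists_omega hq
    have hE : Eig1 (s : M3 F) := (mem_or_eig1 K hK s hs).resolve_left hsK
    have hω3 : ω ^ 3 = 1 := by linear_combination (ω - 1) * hω
    have h1 := N4c.ne_zero_of_eig1 h3F (s : M3 F) hE ω hω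
    have h2 := N4c.ne_zero_of_eig1 h3F (s : M3 F) hE (ω ^ 2)
      (by linear_combination (ω ^ 2 - ω + 1) * hω)
    have e : (ω ^ 2) ^ 2 = ω := by linear_combination ω * hω3
    rw [e] at h2
    exact cyc_of_omega h3F ω hω _ hS3 h0 h1 h2
  · exact cyc_of_no_omega h3F (no_omega hq) _ hS3 h0 hS1

end Cfsg.Agent.Lib.Helper52.Sing3
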