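import Cfsg.Agent.Lib.Helper52.Sing3.A

/-! Sing3 farm, piece NE. -/

set_option autoImplicit false

namespace Cfsg.Agent.Lib.Helper52.Sing3

open Matrix Cfsg.Geo
open scoped MatrixGroups

variable {F : Type*} [Field F]

theorem not_conj_of_eig2 (K : Subalgebra F (M3 F)) (hK : IsFieldSubalgebra 3 K) (x : M3 F)
    (hns : ∀ z : F, x ≠ z • (1 : M3 F)) (a : F) (u v : Fin 3 → F) (hu : u ≠ 0)
    (hv : ∀ c : F, v ≠ c • u) (hxu : x *ᵥ u = a • u) (hxv : x *ᵥ v = a • v) (P g : GL (Fin 3) F)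
    (hg : (g : M3 F) = ((P⁻¹ : GL (Fin 3) F) : M3 F) * x * (P : M3 F)) :
    g ∉ subalgebraNormalizer K := by
  intro hgN
  have hPP : (P : M3 F) * ((P⁻¹ : GL (Fin 3) F) : M3 F) = 1 := by
    rw [← Units.val_mul, mul_inv_cancel, Units.val_one]
  have hPP' : ((P⁻¹ : GL (Fin 3) F) : M3 F) * (P : M3 F) = 1 := by
    rw [← Units.val_mul, inv_mul_cancel, Units.val_one]
  have key : ∀ w : Fin 3 → F, x *ᵥ w = a • w →
      (g : M3 F) *ᵥ (((P⁻¹ : GL (Fin 3) F) : M3 F) *ᵥ w) = a • (((P⁻¹ : GL (Fin 3) F) : M3 F) *ᵥ w) := by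
    intro w hw
    rw [hg, Matrix.mulVec_mulVec, mul_assoc, hPP, mul_one, ← Matrix.mulVec_mulVec, hw,
      Matrix.mulVec_smul]
  have back : ∀ w : Fin 3 → F, (P : M3 F) *ᵥ (((P⁻¹ : GL (Fin 3) F) : M3 F) *ᵥ w) = w := by
    intro w
    rw [Matrix.mulVec_mulVec, hPP, Matrix.one_mulVec]
  have hu' : ((P⁻¹ : GL (Fin 3) F) : M3 F) *ᵥ u ≠ 0 := by
    intro h0
    apply hu
    rw [← back u, h0, Matrix.mulVec_zero]
  rcases mem_or_eig1 K hK g hgN with hgK | hE
  · -- `g - a` lies in `K` and kills a nonzero vector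
    have hmem : (g : M3 F) - a • (1 : M3 F) ∈ K := K.sub_mem hgK (K.smul_mem K.one_mem a)
    have hzero : (g : M3 F) - a • (1 : M3 F) = 0 := by
      by_contra hne
      obtain ⟨y, -, hy⟩ := hK.inv _ hmem hne
      have hcomm := hK.comm _ hmem y (by
        by_contra hyK
        exact hyK (by
          obtain ⟨y', hy'K, hy'⟩ := hK.inv _ hmem hne
          have : y = y' := by
            have e1 : y' * ((g : M3 F) - a • (1 : M3 F)) = 1 := by
              rw [← hK.comm _ hmem y' hy'K]; exact hy'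
            calc y = (y' * ((g : M3 F) - a • (1 : M3 F))) * y := by rw [e1, one_mul]
              _ = y' := by rw [mul_assoc, hy, mul_one]
          rw [this]; exact hy'K))
      apply hu'
      have e2 : y * ((g : M3 F) - a • (1 : M3 F)) = 1 := by rw [← hcomm]; exact hy
      have e3 : ((g : M3 F) - a • (1 : M3 F)) *ᵥ (((P⁻¹ : GL (Fin 3) F) : M3 F) *ᵥ u) = 0 := by
        rw [Matrix.sub_mulVec, key u hxu, Matrix.smul_mulVec, Matrix.one_mulVec, sub_self]
      calc ((P⁻¹ : GL (Fin 3) F) : M3 F) *ᵥ u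
          = (y * ((g : M3 F) - a • (1 : M3 F))) *ᵥ (((P⁻¹ : GL (Fin 3) F) : M3 F) *ᵥ u) := by
            rw [e2, Matrix.one_mulVec]
        _ = 0 := by rw [← Matrix.mulVec_mulVec, e3, Matrix.mulVec_zero]
    apply hns a
    have hga : (g : M3 F) = a • (1 : M3 F) := sub_eq_zero.1 hzero
    have : x = (P : M3 F) * (g : M3 F) * ((P⁻¹ : GL (Fin 3) F) : M3 F) := by
      rw [hg]
      calc x = ((P : M3 F) * ((P⁻¹ : GL (Fin 3) F) : M3 F)) * x *
            ((P : M3 F) * ((P⁻¹ : GL (Fin 3) F) : M3 F)) := by rw [hPP, one_mul, mul_one]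
        _ = _ := by simp only [mul_assoc]
    rw [this, hga, Matrix.mul_smul, mul_one, Matrix.smul_mul, hPP]
  · obtain ⟨c, hc⟩ := hE a _ _ hu' (key u hxu) (key v hxv)
    apply hv c
    rw [← back v, hc, Matrix.mulVec_smul, back u]

end Cfsg.Agent.Lib.Helper52.Sing3
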